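/-
Project ST4, degree five, part 1: four-groups in a member of the class, the configuration of the alternating group.
-/
import Cfsg.Agent.ST4.Base
import Cfsg.Agent.Even.XS2

set_option autoImplicit false

open Cfsg Subgroup Equiv Equiv.Perm CL.Even CL.Grp CL.Altn CL.Known
open scoped commutatorElement

namespace CL.ST4.N5

universe u

section Gen

variable {G : Type*} [Group G] {K V H Q : Subgroup G} {a b u v x y m : G}

/-- `K` is the four-group generated by `a`, `b` -/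
structure Gen (K : Subgroup G) (a b : G) : Prop where
  v4 : V4 a b
  mem : ∀ {x}, x ∈ K ↔ x = 1 ∨ x = a ∨ x = b ∨ x = a * b

theorem gen_of (h : V4 a b) : Gen (closure {a, b}) a b := ⟨h, mem_closure_pair_two h.uu h.vv h.cm⟩

namespace Gen

theorem ma (h : Gen K a b) : a ∈ K := h.mem.2 (by simp)

theorem mb (h : Gen K a b) : b ∈ K := h.mem.2 (by simp)

theorem sq (h : Gen K a b) (hx : x ∈ K) : x * x = 1 :=
  (h.mem.1 hx).elim (by rintro rfl; simp) fun e => (h.v4.sq e).1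

theorem le (h : Gen K a b) (ha : a ∈ H) (hb : b ∈ H) : K ≤ H := fun _ hx =>
  (h.mem.1 hx).elim (by rintro rfl; exact one_mem _) fun e => In3.mem e ha hb

theorem cent (h : Gen K a b) (ha : Commute m a) (hb : Commute m b) : m ∈ 𝒞(K) := fun _ hx =>
  mem_cent_singleton.1 (h.le (H := centralizer {m}) (mem_cent_singleton.2 ha.symm) (mem_cent_singleton.2 hb.symm) hx)

theorem comm (h : Gen K a b) : K ≤ 𝒞(K) :=
  h.le (h.cent (.refl a) h.v4.cm) (h.cent h.v4.cm.symm (.refl b))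

theorem bab (h : Gen K a b) : b * (a * b) = a := by rw [h.v4.cm.eq, ← mul_assoc, h.v4.vv, one_mul]

theorem card (h : Gen K a b) : Nat.card K = 4 :=
  (Nat.card_coe_set_eq (K : Set G)).trans (Set.ncard_eq_four.2 ⟨1, a, b, a * b, h.v4.u1.symm, h.v4.v1.symm,
    h.v4.uv1.symm, h.v4.ne, by simpa using h.v4.v1, by simpa using h.v4.u1, Set.ext fun _ => h.mem⟩)

theorem isP (h : Gen K a b) : IsPGroup 2 K := IsPGroup.of_card (n := 2) h.card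

theorem rot (h : Gen K a b) : Gen K b (a * b) :=
  ⟨⟨h.v4.vv, h.v4.uvuv, h.v4.v1, h.v4.uv1, by simpa using h.v4.u1, h.v4.cm.symm.mul_right (.refl b)⟩,
    by rw [h.bab]; intro x; rw [h.mem]; tauto⟩

theorem graph (gK : Gen K a b) (gV : Gen V u v) (c : Commute a v) (h1 : u * a ∈ Q) (h2 : v * b ∈ Q) :
    (∀ k ∈ K, ∃ x ∈ V, x * k ∈ Q ∧ (k ≠ 1 → x ≠ 1)) ∧ ∀ x ∈ V, ∃ k ∈ K, x * k ∈ Q := by
  have h3 : u * v * (a * b) ∈ Q := by
    have := mul_mem h1 h2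
    rwa [mul_assoc, ← mul_assoc a, c.eq, mul_assoc, ← mul_assoc] at this
  refine ⟨fun k hk => ?_, fun x hx => ?_⟩
  · rcases gK.mem.1 hk with rfl | rfl | rfl | rfl
    exacts [⟨1, one_mem _, by simp, id⟩, ⟨u, gV.ma, h1, fun _ => gV.v4.u1⟩, ⟨v, gV.mb, h2, fun _ => gV.v4.v1⟩,
      ⟨_, mul_mem gV.ma gV.mb, h3, fun _ => gV.v4.uv1⟩]
  · rcases gV.mem.1 hx with rfl | rfl | rfl | rfl
    exacts [⟨1, one_mem _, by simp⟩, ⟨a, gK.ma, h1⟩, ⟨b, gK.mb, h2⟩, ⟨_, mul_mem gK.ma gK.mb, h3⟩]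

end Gen

theorem cm (hg : m ∈ 𝒞(H)) (hx : x ∈ H) : Commute x m := comm_of_mem hg hx

theorem cm_of_mul (ha : a ∈ H) (h : u * a ∈ 𝒞(H)) : Commute u a :=
  mul_right_cancel (b := a) (by rw [← (cm h ha).eq, mul_assoc])

theorem sq_mul (h : Commute x y) (hx : x * x = 1) (hy : y * y = 1) : x * y * (x * y) = 1 := by
  rw [mul_assoc, ← mul_assoc y, ← h.eq, mul_assoc, hy, mul_one, hx]

theorem sq_mul' (h : Commute x y) (hy : y * y = 1) : x * y * (x * y) = x * x := by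
  rw [mul_assoc, ← mul_assoc y, ← h.eq, mul_assoc, hy, mul_one]

/-- a `2`-element -/
def Tw (x : G) : Prop := ∃ n : ℕ, x ^ 2 ^ n = 1

theorem Tw.mul (hx : Tw x) (h : Commute x y) (hy : y * y = 1) : Tw (x * y) :=
  let ⟨n, e⟩ := hx
  ⟨n + 1, by rw [pow_succ', pow_mul, sq, sq_mul' h hy, ← sq, ← pow_mul, mul_comm, pow_mul, e, one_pow]⟩

theorem Tw.of_mem (h : IsPGroup 2 H) (hx : x ∈ H) : Tw x := isPGroup_iff_forall.1 h x hx

theorem Tw.fix [Finite G] (hx : Tw x) (g : Gen K a b) (h : x ∈ 𝒩(K)) : ∃ k ∈ K, k ≠ 1 ∧ Commute x k := by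
  obtain ⟨n, e⟩ := hx
  obtain ⟨⟨k, h1, h2⟩, h3⟩ := ne_bot_iff_exists_ne_one.1 (inf_cent_ne_bot g.isP (isPGroup_zpowers e) (zpowers_le.2 h)
    fun e => g.v4.u1 (mem_bot.1 (e ▸ g.ma)))
  exact ⟨k, h1, fun e => h3 (Subtype.ext e), cm h2 (mem_zpowers x)⟩

end Gen

variable {Δ : Type} [DecidableEq Δ] [Fintype Δ]

theorem exists_c {a b : Perm Δ} (ha : DT a) (hb : DT b) (hs : a.support = b.support) (ne : a ≠ b) :
    ∃ c : Perm Δ, sign c = 1 ∧ c ^ 3 = 1 ∧ c * a * c⁻¹ = b ∧ c * b * c⁻¹ = a * b := by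
  have key : ∀ p q s t : Δ, [p, q, s, t].Nodup → ∃ c : Perm Δ, sign c = 1 ∧ c ^ 3 = 1 ∧
      c * (swap p q * swap s t) * c⁻¹ = swap p s * swap q t ∧
      c * (swap p s * swap q t) * c⁻¹ = swap p q * swap s t * (swap p s * swap q t) := fun p q s t hn => by
    obtain ⟨h1, h2, h3, h4, h5, h6⟩ := nd4 hn
    have k1 : swap p q * swap s t * (swap p s * swap q t) = swap p t * swap q s := by
      ext i; simp only [Perm.mul_apply, swap_apply_def]; split_ifs <;> simp_all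
    rw [k1, swap_comm q t]
    refine ⟨c3 q s t, c3_mem_alt h4 h6, c3_pow_three h4 h5 h6, ?_, ?_⟩ <;>
      rw [← conj_mul, ← swap_apply_apply, ← swap_apply_apply] <;>
      simp only [c3_apply_fst h4 h5, c3_apply_snd h5 h6, c3_apply_thd, c3_apply_of_ne h1 h2 h3, swap_comm t q]
  obtain ⟨p, q, s, t, hn, rfl, e⟩ := DT.exists4 ha
  obtain ⟨h1, h2, h3, h4, h5, h6⟩ := nd4 hn
  rcases (k4_iff Δ p q s t b hn).1 (.inr ⟨hb, hs ▸ e⟩) with rfl | rfl | rfl | rfl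
  · exact absurd rfl (DT.ne_one' hb)
  · exact absurd rfl ne
  · exact key p q s t hn
  · rw [swap_comm s t]
    exact key p q t s (by simp [*, h6.symm])

/-- the statements on permutations that are used -/
structure Hy (Δ : Type) [Fintype Δ] : Prop where
  six : Six.{u}
  p5 : P5
  pc : PC
  ps : PS
  pe7 : PE7
  card : Fintype.card Δ = 5

variable {G : Type u} [Group G]

/-- a Sylow 2-subgroup `K` of `A` and an element of order three normalising it -/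
structure Qd (Δ : Type) [DecidableEq Δ] [Fintype Δ] (A K : Subgroup G) (a b h : G) : Prop where
  g : Gen K a b
  le : K ≤ A
  mh : h ∈ A
  h3 : h ^ 3 = 1
  ha : h * a * h⁻¹ = b
  hb : h * b * h⁻¹ = a * b
  cen : ∀ m ∈ 𝒩(A), m ∈ 𝒞(K) → ∃ k ∈ K, m * k ∈ 𝒞(A)
  fr : ∃ (e : Perm Δ → G) (S : Finset Δ), Fr A e ∧ S.card = 4 ∧ ∀ x, x ∈ K ↔ ∃ k, K4 S k ∧ e k = x

variable {F : SF G Δ} {A B C K R V : Subgroup G} {a b h k m r s u v x : G}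

namespace Qd

theorem rot (q : Qd Δ A K a b h) : Qd Δ A K b (a * b) h :=
  ⟨q.g.rot, q.le, q.mh, q.h3, q.hb, by rw [← conj_mul, q.ha, q.hb], q.cen, q.fr⟩

theorem of_mem (q : Qd Δ A K a b h) (hk : k ∈ K) (k1 : k ≠ 1) : Qd Δ A K k (h * k * h⁻¹) h := by
  rcases q.g.mem.1 hk with rfl | rfl | rfl | rfl
  · exact absurd rfl k1
  · exact q.ha ▸ q
  · exact q.hb ▸ q.rot
  · exact q.rot.rot.ha ▸ q.rot.rot

theorem fpf (q : Qd Δ A K a b h) (hk : k ∈ K) (c : Commute h k) : k = 1 := by_contra fun k1 =>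
  (q.of_mem hk k1).g.v4.ne (by rw [c.eq, mul_inv_cancel_right])

theorem hK [Finite G] (q : Qd Δ A K a b h) : h ∈ 𝒩(K) := mem_norm_of_cj_le (by
  rintro _ ⟨k, hk, rfl⟩
  by_cases e : k = 1
  · simp [e]
  · exact (q.of_mem hk e).g.mb)

end Qd

theorem odd_ord [Finite G] (hA : F.C A) (hB : F.C B) (ne : A ≠ B) (h1 : x ∈ 𝒞(A)) (h2 : x ∈ 𝒞(B)) :
    Odd (orderOf x) := by
  by_contra h
  obtain ⟨n, hn⟩ := Nat.not_odd_iff_even.1 h
  have := orderOf_pos x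
  exact ne (F.te hA hB (x := x ^ n) (by rw [← pow_add, ← hn, pow_orderOf_eq_one])
    (pow_ne_one_of_lt_orderOf (by omega) (by omega)) (pow_mem h1 n) (pow_mem h2 n))

theorem inv_one (hA : F.C A) (hB : F.C B) (ne : A ≠ B) (h1 : x ∈ 𝒞(A)) (h2 : x ∈ 𝒞(B)) (x2 : x * x = 1) : x = 1 :=
  by_contra fun e => ne (F.te hA hB x2 e h1 h2)

theorem cm_part (hA : F.C A) (hm : m ∈ 𝒩(A)) (ha : a ∈ A) (hu : u * a ∈ 𝒞(A)) (h : Commute m u) : Commute m a := by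
  have h1 := mul_mem (inv_mem hu) (conj_mem (norm_le_norm_cent A hm) hu)
  rw [← mul_assoc m, h.eq, show (u * a)⁻¹ * (u * m * a * m⁻¹) = a⁻¹ * (m * a * m⁻¹) by group] at h1
  exact mul_inv_eq_iff_eq_mul.1 (inv_mul_eq_one.1 (SF.eq_one_of_mem hA (mul_mem (inv_mem ha) (conj_mem hm ha)) h1)).symm

/-- the even permutations of the frame that lie in `M` -/
def pre {e : Perm Δ → G} (he : Fr A e) (M : Subgroup G) : Subgroup (Perm Δ) where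
  carrier := {π | sign π = 1 ∧ e π ∈ M}
  one_mem' := ⟨by simp, he.one ▸ one_mem M⟩
  mul_mem' h h' := ⟨sign_mul' h.1 h'.1, he.mul h.1 h'.1 ▸ mul_mem h.2 h'.2⟩
  inv_mem' h := ⟨sign_inv' h.1, he.inv h.1 ▸ inv_mem h.2⟩

theorem not_le_pre {e : Perm Δ → G} (he : Fr A e) {M : Subgroup G} (h : ¬ A ≤ M) :
    ¬ alternatingGroup Δ ≤ pre he M := fun k => h fun x hx => by
  obtain ⟨π, h1, rfl⟩ := he.surj x hx
  exact (k h1).2

namespace Hy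

variable (H : Hy.{u} Δ)
include H

theorem good {e : Perm Δ → G} (he : Fr A e) (hm : m ∈ 𝒩(A)) : ∃ π, Act e m π :=
  H.six.b0 G Δ A e m H.card.ge (by rw [H.card]; norm_num) he hm

theorem card_eq (hA : F.C A) : Nat.card A = 60 := by
  obtain ⟨e, he⟩ := F.iso hA
  have : Nontrivial Δ := Fintype.one_lt_card_iff_nontrivial.1 (by rw [H.card]; norm_num)
  rw [← Nat.card_congr he.equiv.toEquiv, nat_card_alternatingGroup, Nat.card_eq_fintype_card, H.card]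
  rfl

theorem syl (hA : F.C A) (q : Qd Δ A K a b h) : IsSylowIn 2 K A := ⟨q.le, q.g.isP, by
  have := card_mul_relIndex q.le
  rw [q.g.card, H.card_eq hA] at this
  omega⟩

theorem inv_conj (hA : F.C A) (hB : F.C B) {y : G} (hx : x ∈ A) (hy : y ∈ B) (x2 : x * x = 1) (y2 : y * y = 1)
    (x1 : x ≠ 1) (y1 : y ≠ 1) : ∃ g, g * x * g⁻¹ = y := by
  obtain ⟨g, rfl⟩ := F.tr hA hB
  obtain ⟨y, hy, rfl⟩ := hy
  obtain ⟨e, he⟩ := F.iso hA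
  have key : ∀ π, sign π = 1 → e π * e π = 1 → e π ≠ 1 → DT π := fun π h1 h2 h3 =>
    H.six.b6 Δ π H.card.ge (by rw [H.card]; norm_num) (he.inj (sign_mul' h1 h1) (he.mul h1 h1 ▸ h2))
      (by rintro rfl; exact h3 he.one) h1
  obtain ⟨π, h1, rfl⟩ := he.surj x hx
  obtain ⟨σ, h2, rfl⟩ := he.surj y hy
  obtain ⟨c, h3, rfl⟩ := isConj_dt (key π h1 x2 x1) (key σ h2 (by simpa using y2) (by simpa using y1))
  exact ⟨g * e c, by rw [← he.act h3 π h1]; simp [mul_assoc]⟩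

theorem lemP (hA : F.C A) (hB : F.C B) (ne : A ≠ B) (g : Gen V u v) (h1 : V ≤ 𝒞(B)) (h2 : V ≤ 𝒩(A)) :
    ∃ K a b h, Qd Δ A K a b h ∧ u * a ∈ 𝒞(A) ∧ v * b ∈ 𝒞(A) := by
  obtain ⟨e, he⟩ := F.iso hA
  have h4 : 4 ≤ Fintype.card Δ := by rw [H.card]; norm_num
  obtain ⟨a, ha⟩ := H.good he (h2 g.ma)
  obtain ⟨b, hb⟩ := H.good he (h2 g.mb)
  have n : ∀ x ∈ V, Act e x 1 → x = 1 := fun x hx k => inv_one hA hB ne (he.mem_cent.2 k) (h1 hx) (g.sq hx)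
  have b2 := hb.sq he h4 g.v4.vv
  have w : V4 a b := ⟨ha.sq he h4 g.v4.uu, b2, fun k => g.v4.u1 (n _ g.ma (k ▸ ha)),
    fun k => g.v4.v1 (n _ g.mb (k ▸ hb)), fun k => g.v4.uv1 (n _ (mul_mem g.ma g.mb) (by
      have := ha.mul hb; rwa [k, b2] at this)), ha.comm hb he h4 g.v4.cm⟩
  obtain ⟨da, db, hs⟩ := H.p5 Δ a b (pre he 𝒩(B)) H.card w
    (not_le_pre he (SF.not_le_norm hA hB ne g.v4.uu g.v4.u1 (h1 g.ma) (h2 g.ma))) fun x hx c hc k => by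
      obtain ⟨y, y1, y2⟩ : ∃ y, In3 u v y ∧ Act e y x := by
        rcases hx with rfl | rfl | rfl
        exacts [⟨u, .inl rfl, ha⟩, ⟨v, .inr (.inl rfl), hb⟩, ⟨u * v, .inr (.inr rfl), ha.mul hb⟩]
      exact ⟨hc, SF.norm_of_comm hB (g.v4.sq y1).1 (g.v4.sq y1).2 (h1 (y1.mem g.ma g.mb))
        ((y2.comm_iff he hc).2 k.symm).symm⟩
  obtain ⟨c, c1, c2, c3, c4⟩ := exists_c da db hs w.ne
  have ka : K4 a.support a := DT.k4 da
  have kb : K4 a.support b := .inr ⟨db, hs.symm⟩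
  have sa := da.sign
  have sb := db.sign
  have g' := gen_of (⟨he.sq sa w.uu, he.sq sb w.vv, fun k => w.u1 (he.inj sa k), fun k => w.v1 (he.inj sb k),
    fun k => w.ne (he.eq sa sb k), he.comm sa sb w.cm⟩ : V4 (e a) (e b))
  have fr : ∀ x, x ∈ closure {e a, e b} ↔ ∃ k, K4 a.support k ∧ e k = x := fun x => by
    rw [g'.mem, ← he.mul sa sb, ← he.one]
    refine ⟨?_, ?_⟩
    · rintro (rfl | rfl | rfl | rfl)
      exacts [⟨1, .inl rfl, rfl⟩, ⟨a, ka, rfl⟩, ⟨b, kb, rfl⟩, ⟨_, (ka.mul kb).1, rfl⟩]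
    · rintro ⟨k, hk, rfl⟩
      rcases ka.cases kb w.u1 w.v1 w.ne hk with rfl | rfl | rfl | rfl <;> simp
  refine ⟨_, e a, e b, e c, ⟨g', g'.le (he.mem sa) (he.mem sb), he.mem c1, by rw [← he.pow c1, c2, he.one],
    by rw [he.act c1 a sa, c3], by rw [he.act c1 b sb, c4, he.mul sa sb], fun m hm hc => ?_, e, _, he, da.2, fr⟩,
    he.mem_cent.2 (w.uu ▸ ha.mul (he.act sa)), he.mem_cent.2 (w.vv ▸ hb.mul (he.act sb))⟩
  obtain ⟨π, hπ⟩ := H.good he hm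
  have k := H.pe7 Δ _ 1 π da.2 (fun k hk => (hπ.comm_iff he hk.sign).1 (cm hc ((fr _).2 ⟨k, hk, rfl⟩)).symm)
    (.inl H.card)
  exact ⟨e π, (fr _).2 ⟨π, k, rfl⟩, he.mem_cent.2 (k.sq ▸ hπ.mul (he.act k.sign))⟩

omit H in
theorem _root_.CL.ST4.N5.Qd.cent (q : Qd Δ A K a b h) (hA : F.C A) (g : Gen V u v) (h1 : u * a ∈ 𝒞(A))
    (h2 : v * b ∈ 𝒞(A)) (hm : m ∈ 𝒩(A)) (hc : m ∈ 𝒞(V)) : m ∈ 𝒞(K) :=
  q.g.cent (cm_part hA hm (q.le q.g.ma) h1 (cm hc g.ma).symm) (cm_part hA hm (q.le q.g.mb) h2 (cm hc g.mb).symm)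

theorem lemC (hA : F.C A) (hB : F.C B) (ne : A ≠ B) (g : Gen V u v) (h1 : V ≤ 𝒞(B)) (h2 : V ≤ 𝒩(A))
    (hm : m ∈ 𝒩(A)) (hc : m ∈ 𝒞(V)) : ∃ x ∈ V, m * x ∈ 𝒞(A) := by
  obtain ⟨K, a, b, h, q, ha, hb⟩ := H.lemP hA hB ne g h1 h2
  have hV : V ≤ 𝒞(K) := fun x hx => q.cent hA g ha hb (h2 hx) (g.comm hx)
  obtain ⟨k, hk, e⟩ := q.cen m hm (q.cent hA g ha hb hm hc)
  obtain ⟨x, hx, e', -⟩ := (q.g.graph g (cm (hV g.mb) q.g.ma) ha hb).1 k hk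
  refine ⟨x, hx, ?_⟩
  have := mul_mem e e'
  rwa [← (cm (hV hx) hk).eq, mul_assoc, ← mul_assoc k, q.g.sq hk, one_mul] at this

/-- the configuration of the alternating group -/
theorem caseI [Finite G] (hA : F.C A) (hC : F.C C) (q : Qd Δ A K a b h) (hK : K ≤ 𝒞(C)) :
    ∃ A B e S, F.Cf A B e S := by
  obtain ⟨e, S, he, hS, fr⟩ := q.fr
  have h4 : 4 ≤ Fintype.card Δ := by rw [H.card]; norm_num
  have aA := q.le q.g.ma
  have aC := hK q.g.ma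
  have ne : A ≠ C := by rintro rfl; exact q.g.v4.u1 (SF.eq_one_of_mem hA aA aC)
  obtain ⟨d, kd, rfl⟩ := (fr a).1 q.g.ma
  have d1 : d ≠ 1 := by rintro rfl; exact q.g.v4.u1 he.one
  have mem : ∀ k, K4 S k → e k ∈ 𝒞(C) := fun k hk => hK ((fr _).2 ⟨k, hk, rfl⟩)
  have nC : ∀ {g}, g * e d * g⁻¹ ∈ 𝒞(C) → g ∈ 𝒩(C) := SF.norm_of_conj hC q.g.v4.uu q.g.v4.u1 aC
  have pr := H.pc Δ (pre he 𝒩(C)) S H.card.ge (by rw [H.card]; norm_num) hS
    (not_le_pre he (SF.not_le_norm hA hC ne q.g.v4.uu q.g.v4.u1 aC (le_normalizer aA)))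
    fun c hc k => ⟨hc, nC (by rw [he.act hc d kd.sign]; exact mem _ (kd.cj' k))⟩
  have hn : 𝒞(C) ≤ 𝒩(A) := by
    obtain ⟨u, hu, v, hv, w⟩ := F.four hA
    have g := gen_of w
    have h1 := g.le hu hv
    have h2 : closure {u, v} ≤ 𝒩(C) := fun x hx => nC (by rwa [conj_eq_of_mem (h1 hx) aA])
    have hh : h ∈ 𝒞(C) := by
      obtain ⟨x, hx, k⟩ := H.lemC hC hA ne.symm g h1 h2 (nC (q.ha ▸ hK q.g.mb))
        (g.cent (cm hu q.mh) (cm hv q.mh))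
      have := mul_mem k k
      rw [sq_mul' (cm (h1 hx) q.mh) (g.sq hx)] at this
      have := mul_mem this this
      rwa [show h * h * (h * h) = h ^ 3 * h by simp [pow_succ, mul_assoc], q.h3, one_mul] at this
    obtain ⟨K', a', b', h', q', k1, -⟩ := H.lemP hC hA ne.symm g h1 h2
    have a'C := q'.le q'.g.ma
    have c1 := cm_of_mul a'C k1
    have c2 : u * a' ∈ 𝒞(K) := mul_mem (cent_mono q.le hu) fun k hk => (cm (hK hk) a'C).symm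
    obtain ⟨k, hk, k2⟩ := q.cen _ (SF.norm_of_comm hA w.uu w.u1 hu ((Commute.refl u).mul_left c1.symm)) c2
    have c3 : Commute h (u * a') := (cm hu q.mh).mul_right (cm hh a'C).symm
    rw [q.fpf hk (by simpa only [inv_mul_cancel_left] using c3.inv_right.mul_right (cm k2 q.mh)), mul_one] at k2
    have k3 := inv_one hA hC ne k2 k1 (sq_mul c1 w.uu q'.g.v4.uu)
    exact fun x hx => SF.norm_of_comm hA w.uu w.u1 hu
      (cm hx (eq_inv_of_mul_eq_one_left k3 ▸ inv_mem a'C)).symm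
  let D : Subgroup (Perm Δ) :=
    { carrier := {π | ∃ y ∈ 𝒞(C), Act e y π}
      one_mem' := ⟨1, one_mem _, Act.one⟩
      mul_mem' := fun ⟨_, h1, h2⟩ ⟨_, h3, h4⟩ => ⟨_, mul_mem h1 h3, h2.mul h4⟩
      inv_mem' := fun ⟨_, h1, h2⟩ => ⟨_, inv_mem h1, h2.inv⟩ }
  have ps := H.ps Δ D d H.card.ge ⟨_, aC, he.act kd.sign⟩ (kd.dt d1) fun x ⟨y, y1, y2⟩ x2 x1 c hc k => by
    obtain ⟨n, hn⟩ := odd_ord hA hC ne (he.mem_cent.2 (x2 ▸ y2.mul y2)) (mul_mem y1 y1)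
    have y3 := y2.pow (2 * n + 1)
    rw [pow_succ x, pow_mul, sq, x2, one_pow, one_mul] at y3
    refine kd.supp d1 ▸ pr c ⟨hc, SF.norm_of_comm hC ?_ (fun e => x1 (Act.eq_one (e ▸ y3) he h4)) (pow_mem y1 _)
      ((y3.comm_iff he hc).2 k.symm).symm⟩ hc
    rw [← (Commute.refl y).mul_pow, ← hn, pow_orderOf_eq_one]
  refine ⟨A, C, e, S, hA, hC, he, hS, mem, fun x hx x2 => ?_⟩
  obtain ⟨π, hπ⟩ := H.good he (hn hx)
  have k := kd.supp d1 ▸ ps π ⟨x, hx, hπ⟩ (hπ.sq he h4 x2)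
  have k2 := he.sq k.sign k.sq
  exact ⟨π, k, mul_right_cancel ((inv_one hA hC ne (he.mem_cent.2 (k.sq ▸ hπ.mul (he.act k.sign)))
    (mul_mem hx (mem π k)) (sq_mul ((hπ.comm_iff he k.sign).2 (.refl π)) x2 k2)).trans k2.symm)⟩

end Hy

theorem Qd.allK (q : Qd Δ A K a b h) (hA : F.C A) (hB : F.C B)
    (hq : ∀ k ∈ K, ∃ x ∈ 𝒞(A), x * x = 1 ∧ x * k ∈ 𝒞(B)) (hk : k ∈ K) (k1 : k ≠ 1) (kB : k ∈ 𝒞(B)) : K ≤ 𝒞(B) := by
  have q' := q.of_mem hk k1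
  obtain ⟨x, h1, h2, h3⟩ := hq _ q'.g.mb
  have bA := q.le q'.g.mb
  refine q'.g.le kB (conj_mem (norm_le_norm_cent B (SF.norm_of_conj hB (sq_mul (cm h1 bA).symm h2 q'.g.v4.vv)
    (fun e => q'.g.v4.v1 (SF.eq_one_of_mem hA bA (eq_inv_of_mul_eq_one_right e ▸ inv_mem h1))) h3 ?_)) kB)
  rw [← conj_mul, q'.hb, (cm h1 q.mh).eq, mul_inv_cancel_right, ← mul_assoc, ← (cm h1 (q.le hk)).eq, mul_assoc]
  exact mul_mem kB h3

variable (F) in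
/-- the four-group `⟨r a, s b⟩` centralises `B` -/
structure Cg (A B R K : Subgroup G) (a b h r s : G) : Prop where
  hA : F.C A
  hB : F.C B
  ne : A ≠ B
  q : Qd Δ A K a b h
  g : Gen R r s
  le : R ≤ 𝒞(A)
  ra : r * a ∈ 𝒞(B)
  sb : s * b ∈ 𝒞(B)

namespace Cg

variable (c : Cg F A B R K a b h r s)
include c

theorem RK : R ≤ 𝒞(K) := c.le.trans (cent_mono c.q.le)

theorem gk (hk : k ∈ K) : ∃ x ∈ R, x * k ∈ 𝒞(B) ∧ (k ≠ 1 → x ≠ 1) :=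
  (c.q.g.graph c.g (cm (c.RK c.g.mb) c.q.g.ma) c.ra c.sb).1 k hk

theorem gr (hx : x ∈ R) : ∃ k ∈ K, x * k ∈ 𝒞(B) :=
  (c.q.g.graph c.g (cm (c.RK c.g.mb) c.q.g.ma) c.ra c.sb).2 x hx

theorem one (h1 : x ∈ 𝒞(A)) (h2 : x ∈ 𝒞(B)) (x2 : x * x = 1) : x = 1 := inv_one c.hA c.hB c.ne h1 h2 x2

theorem sq (hx : x ∈ R) (hk : k ∈ K) : x * k * (x * k) = 1 := sq_mul (cm (c.RK hx) hk).symm (c.g.sq hx) (c.q.g.sq hk)

theorem ne1 (hx : x ∈ R) (x1 : x ≠ 1) (hk : k ∈ K) : x * k ≠ 1 := fun e =>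
  x1 (SF.eq_one_of_mem c.hA (eq_inv_of_mul_eq_one_left e ▸ inv_mem (c.q.le hk)) (c.le hx))

theorem nB (hk : k ∈ K) (kB : k ∈ 𝒞(B)) : k = 1 := by_contra fun k1 =>
  let ⟨_, h1, h2, h3⟩ := c.gk hk
  h3 k1 (c.one (c.le h1) ((mul_mem_cancel_right kB).1 h2) (c.g.sq h1))

theorem lam (hx : x ∈ R) (x1 : x ≠ 1) (hk : k ∈ K) (k1 : k ≠ 1) : ∃ t ∈ zpowers h, t * (x * k) * t⁻¹ ∈ 𝒞(B) := by
  obtain ⟨l, h1, h2⟩ := c.gr hx
  have q := c.q.of_mem h1 fun e => x1 (c.one (c.le hx) (by simpa [e] using h2) (c.g.sq hx))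
  have e : ∀ t ∈ zpowers h, t * (x * (t⁻¹ * l * t)) * t⁻¹ ∈ 𝒞(B) := fun t ht => by
    rwa [← conj_mul, (cm (c.le hx) (zpowers_le.2 c.q.mh ht)).eq, mul_inv_cancel_right,
      show t * (t⁻¹ * l * t) * t⁻¹ = l by group]
  rcases q.g.mem.1 hk with rfl | rfl | rfl | rfl
  · exact absurd rfl k1
  · exact ⟨1, one_mem _, by simpa using h2⟩
  · exact ⟨h⁻¹, inv_mem (mem_zpowers h), by simpa only [inv_inv] using e _ (inv_mem (mem_zpowers h))⟩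
  · refine ⟨h, mem_zpowers h, ?_⟩
    have := e _ (mem_zpowers h)
    rwa [show h⁻¹ * l * h = l * (h * l * h⁻¹) by
      rw [mul_assoc, inv_mul_eq_iff_eq_mul]; exact (mul_inv_eq_iff_eq_mul.1 (q.rot.hb.trans q.g.bab)).symm] at this

theorem rt (hx : x ∈ R) (x1 : x ≠ 1) (hk : k ∈ K) : F.Rt (x * k) := by
  by_cases e : k = 1
  · exact ⟨c.sq hx hk, c.ne1 hx x1 hk, A, c.hA, by simpa [e] using c.le hx⟩
  · obtain ⟨t, -, h1⟩ := c.lam hx x1 hk e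
    have := SF.Rt.conj (F := F) ⟨by rw [conj_mul, c.sq hx hk]; simp, mt conj_eq_one_iff.1 (c.ne1 hx x1 hk), B, c.hB,
      h1⟩ t⁻¹
    rwa [show t⁻¹ * (t * (x * k) * t⁻¹) * t⁻¹⁻¹ = x * k by group] at this

theorem of_root [Finite G] (H : Hy.{u} Δ) (hk : k ∈ K) (h : F.Rt k) : ∃ C, F.C C ∧ K ≤ 𝒞(C) := by
  obtain ⟨k2, k1, C, hC, kC⟩ := h
  have n : 𝒞(K) ≤ 𝒩(C) := fun x hx => SF.norm_of_comm hC k2 k1 kC (cm hx hk).symm
  refine ⟨C, hC, fun l hl => by_contra fun hl' => ?_⟩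
  obtain ⟨x, h1, h2⟩ := H.lemC hC c.hA (by rintro rfl; exact k1 (SF.eq_one_of_mem hC (c.q.le hk) kC)) c.g c.le
    (c.RK.trans n) (n (c.q.g.comm hl)) (le_centralizer_iff.1 c.RK hl)
  rw [(cm (c.RK h1) hl).eq] at h2
  have x1 : x ≠ 1 := by rintro rfl; exact hl' (by simpa using h2)
  obtain ⟨t, ht, h3⟩ := c.lam h1 x1 hl (by rintro rfl; exact hl' (one_mem _))
  have e := F.te (F.conj hC t) c.hB (by rw [conj_mul, c.sq h1 hl]; simp) (mt conj_eq_one_iff.1 (c.ne1 h1 x1 hl))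
    (cj_cent t C ▸ conj_mem_cj t h2) h3
  exact k1 (conj_eq_one_iff.1 (c.nB (conj_mem (zpowers_le.2 c.q.hK ht) hk) (e ▸ cj_cent t C ▸ conj_mem_cj t kC)))

end Cg

theorem Hy.cases [Finite G] (H : Hy.{u} Δ) (h : F.Pair4) : (∃ A B e S, F.Cf A B e S) ∨
    ∃ A B R K a b h r s, Cg F A B R K a b h r s ∧ ∀ k ∈ K, ¬ F.Rt k := by
  obtain ⟨A, B, u, v, hA, hB, ne, w, h1, h2, h3, h4⟩ := h
  have g := gen_of w
  obtain ⟨K, a, b, h, q, ha, hb⟩ := H.lemP hA hB ne g (g.le h1 h2) (g.le h3 h4)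
  have hV : closure {u, v} ≤ 𝒞(K) := fun x hx => q.cent hA g ha hb (g.le h3 h4 hx) (g.comm hx)
  by_cases hK : ∀ k ∈ K, k ∈ 𝒞(B) → k = 1
  · have ua := (cm (hV g.ma) q.g.ma).symm
    have vb := (cm (hV g.mb) q.g.mb).symm
    have w' : V4 (u * a) (v * b) := ⟨sq_mul ua w.uu q.g.v4.uu, sq_mul vb w.vv q.g.v4.vv,
      fun e => q.g.v4.u1 (hK _ q.g.ma (eq_inv_of_mul_eq_one_right e ▸ inv_mem h1)),
      fun e => q.g.v4.v1 (hK _ q.g.mb (eq_inv_of_mul_eq_one_right e ▸ inv_mem h2)),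
      fun e => q.g.v4.uv1 (hK _ (mul_mem q.g.ma q.g.mb) (by
        rw [eq_inv_mul_of_mul_eq e, mul_assoc, mul_assoc, q.g.v4.vv, mul_one]; exact mul_mem (inv_mem h1) h2)),
      (w.cm.mul_right (cm (hV g.ma) q.g.mb).symm).mul_left ((cm (hV g.mb) q.g.ma).mul_right q.g.v4.cm)⟩
    have c : Cg F A B _ K a b h _ _ := ⟨hA, hB, ne, q, gen_of w', (gen_of w').le ha hb,
      by rwa [mul_assoc, q.g.v4.uu, mul_one], by rwa [mul_assoc, q.g.v4.vv, mul_one]⟩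
    by_cases hr : ∀ k ∈ K, ¬ F.Rt k
    · exact .inr ⟨_, _, _, _, _, _, _, _, _, c, hr⟩
    · push Not at hr
      obtain ⟨k, hk, hr⟩ := hr
      obtain ⟨C, hC, h5⟩ := c.of_root H hk hr
      exact .inl (H.caseI hA hC q h5)
  · push Not at hK
    obtain ⟨k, hk, kB, k1⟩ := hK
    refine .inl (H.caseI hA hB q (q.allK hA hB (fun l hl => ?_) hk k1 kB))
    obtain ⟨x, x1, x2, -⟩ := (q.g.graph g (cm (hV g.mb) q.g.ma) ha hb).1 l hl
    exact ⟨_, x2, sq_mul (cm (hV x1) hl).symm (g.sq x1) (q.g.sq hl),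
      by rw [mul_assoc, q.g.sq hl, mul_one]; exact g.le h1 h2 x1⟩

end CL.ST4.N5
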