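/-
Project ST4, degree five, part 2: four conjugates of `R` in `R K`.
-/
import Cfsg.Agent.ST4.Five1

set_option autoImplicit false

open Cfsg Subgroup Equiv Equiv.Perm CL.Even CL.Grp CL.Altn CL.Known
open scoped commutatorElement

namespace CL.ST4

universe u

namespace N5

section Gen

variable {G : Type*} [Group G] [Finite G] {W K L M S : Subgroup G} {x y w : G}

theorem syl_mem (hS : IsSylowIn 2 S M) (t : Tw y) (hy : y ∈ M) (hn : y ∈ 𝒩(S)) : y ∈ S :=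
  let ⟨_, e⟩ := t
  (hS.eq_of_le (isPGroup_sup' hS.isPGroup (isPGroup_zpowers e) (zpowers_le.2 hn)) le_sup_left
    (sup_le hS.le (zpowers_le.2 hy))).le (mem_sup_right (mem_zpowers y))

/-- the elements centralising `K`, `W / K` and the elements of odd order of `C(W)` -/
def UU (W K : Subgroup G) : Subgroup G := cmod W K ⊓ 𝒞(K) ⊓ 𝒞(pResidualOf 2 𝒞(W))

/-- its largest normal 2-subgroup -/
def PP (W K : Subgroup G) : Subgroup G := pCoreOf 2 (UU W K)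

omit [Finite G] in
theorem cmod_cj (hx : x ∈ cmod W K) (hw : w ∈ W) : ∃ k ∈ K, x * w * x⁻¹ = w * k :=
  ⟨_, hx.2 _ (inv_mem hw), by simp [commutatorElement_def, mul_assoc]⟩

omit [Finite G] in
theorem sqU (hK : ∀ k ∈ K, k * k = 1) (hx : x ∈ UU W K) : x * x ∈ 𝒞(W) := fun w hw => by
  obtain ⟨k, hk, e⟩ := cmod_cj hx.1.1 hw
  refine (mul_inv_eq_iff_eq_mul.1 ?_).symm
  rw [show x * x * w * (x * x)⁻¹ = x * (x * w * x⁻¹) * x⁻¹ by group, e, ← conj_mul, e, conj_eq_of_mem hx.1.2 hk,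
    mul_assoc, hK k hk, mul_one]

theorem UU_le (hK : ∀ k ∈ K, k * k = 1) (h1 : PP W K ≤ M) (h2 : 𝒞(W) ≤ M) : UU W K ≤ M := by
  obtain ⟨S, hS⟩ := exists_isSylowIn (p := 2) (UU W K)
  have h3 : pResidualOf 2 (UU W K) ≤ pResidualOf 2 𝒞(W) := res_le_of fun x hx ho =>
    mem_res (mem_of_pow_mem_of_coprime ho (by rw [sq]; exact sqU hK hx)) ho
  refine le_of_syl_of_res hS ((le_core hS.le hS.isPGroup (le_of_syl_of_res hS le_normalizer (h3.trans ?_))).trans h1)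
    (h3.trans ((res_le _).trans h2))
  exact (le_centralizer_iff.1 (hS.le.trans inf_le_right)).trans (cent_le_norm S)

omit [Finite G] in
theorem norm_PP (h1 : L ≤ 𝒩(W)) (h2 : L ≤ 𝒩(K)) : L ≤ 𝒩(PP W K) :=
  le_norm_core (le_norm_inf (le_norm_inf (le_norm_cmod h1 h2) (le_norm_cent h2))
    (le_norm_cent (le_norm_res (le_norm_cent h1))))

omit [Finite G] in
theorem UU_norm (h : K ≤ W) : UU W K ≤ 𝒩(W) :=
  le_norm_of_commutator_le ((commutator_le_of_le_cmod (inf_le_left.trans inf_le_left)).trans h)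

omit [Finite G] in
theorem PP_le : PP W K ≤ UU W K := core_le _

omit [Finite G] in
theorem PP_tw (h : x ∈ PP W K) : Tw x := Tw.of_mem (core_isP _) h

end Gen

variable {Δ : Type} [DecidableEq Δ] [Fintype Δ] {G : Type u} [Group G] [Finite G] {F : SF G Δ}
  {A B K R : Subgroup G} {a b g h k n r s x y : G}

namespace Cg

variable (c : Cg F A B R K a b h r s)
include c

theorem KR : K ≤ 𝒞(R) := le_centralizer_iff.1 c.RK

theorem memW : y ∈ R ⊔ K ↔ ∃ x ∈ R, ∃ k ∈ K, x * k = y := mem_sup_nr (c.RK.trans (cent_le_norm K))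

theorem Wc : R ⊔ K ≤ 𝒞((R ⊔ K : Subgroup G)) := by
  rw [cent_sup]; exact le_inf (sup_le c.g.comm c.KR) (sup_le c.RK c.q.g.comm)

theorem Wsq (hy : y ∈ R ⊔ K) : y * y = 1 := by
  obtain ⟨x, hx, k, hk, rfl⟩ := c.memW.1 hy
  exact c.sq hx hk

theorem nA (hx : x ∈ R) (x1 : x ≠ 1) (h : g * x * g⁻¹ ∈ 𝒞(A)) : g ∈ 𝒩(A) :=
  SF.norm_of_conj c.hA (c.g.sq hx) x1 (c.le hx) h

theorem nA' (hx : x ∈ R) (x1 : x ≠ 1) (h : Commute g x) : g ∈ 𝒩(A) :=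
  SF.norm_of_comm c.hA (c.g.sq hx) x1 (c.le hx) h

theorem NR_le : 𝒩(R) ≤ 𝒩(A) := fun _ h => c.nA c.g.ma c.g.v4.u1 (c.le (conj_mem h c.g.ma))

theorem hR : h ∈ 𝒞(R) := le_centralizer_iff.1 c.le c.q.mh

theorem hW : zpowers h ≤ 𝒩((R ⊔ K : Subgroup G)) :=
  le_norm_sup (zpowers_le.2 (cent_le_norm R c.hR)) (zpowers_le.2 c.q.hK)

theorem infR (hy : y ∈ R ⊔ K) (h : y ∈ 𝒞(A)) : y ∈ R := by
  obtain ⟨x, hx, k, hk, rfl⟩ := c.memW.1 hy
  rwa [SF.eq_one_of_mem c.hA (c.q.le hk) ((mul_mem_cancel_left (c.le hx)).1 h), mul_one]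

theorem normR (h1 : n ∈ 𝒩((R ⊔ K : Subgroup G))) (h2 : n ∈ 𝒩(A)) : n ∈ 𝒩(R) := mem_norm_of_cj_le (by
  rintro _ ⟨x, hx, rfl⟩
  exact c.infR (conj_mem h1 (mem_sup_left hx)) (conj_mem (norm_le_norm_cent A h2) (c.le hx)))

theorem RB : R ≤ 𝒩(B) := fun _ hx => SF.norm_of_comm c.hB (c.sq c.g.ma c.q.g.ma) (c.ne1 c.g.ma c.g.v4.u1 c.q.g.ma) c.ra
  (cm (c.Wc (mul_mem_sup c.g.ma c.q.g.ma)) (mem_sup_left hx))

theorem kerR (t : Tw y) (h1 : y ∈ 𝒩(K)) (h2 : y ∈ 𝒞(R)) : y ∈ 𝒞(K) := fun k hk => by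
  obtain ⟨l, l1, l2, l3⟩ := t.fix c.q.g h1
  obtain ⟨z, z1, z2, z3⟩ := c.gk l1
  have yB := SF.norm_of_comm c.hB (c.sq z1 l1) (c.ne1 z1 (z3 l2) l1) z2 ((cm h2 z1).symm.mul_right l3)
  obtain ⟨x, x1, x2, -⟩ := c.gk hk
  have := mul_mem (inv_mem x2) (conj_mem (norm_le_norm_cent B yB) x2)
  rw [← conj_mul, conj_eq_of_mem h2 x1, mul_inv_rev, mul_assoc, inv_mul_cancel_left] at this
  exact (mul_inv_eq_iff_eq_mul.1 (inv_mul_eq_one.1 (c.nB (mul_mem (inv_mem hk) (conj_mem h1 hk)) this)).symm).symm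

theorem hU : h ∈ cmod (R ⊔ K) K ⊓ 𝒞(pResidualOf 2 𝒞((R ⊔ K : Subgroup G))) := by
  refine ⟨⟨c.q.hK, fun w hw => ?_⟩, le_centralizer_iff.1 (res_le_of fun y hy ho => ?_) c.q.mh⟩
  · obtain ⟨x, hx, k, hk, rfl⟩ := c.memW.1 hw
    rw [commutatorElement_def, mul_assoc, mul_assoc, ← mul_assoc h, mul_inv_rev, ← conj_mul,
      conj_eq_of_mem c.hR (inv_mem hx), mul_assoc, ← mul_assoc k, ← mul_assoc]
    exact conj_mem (cent_le_norm K (c.RK hx)) (mul_mem hk (conj_mem c.q.hK (inv_mem hk)))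
  · rw [cent_sup] at hy
    obtain ⟨k, hk, e⟩ := c.q.cen y (c.nA' c.g.ma c.g.v4.u1 (cm hy.1 c.g.ma).symm) hy.2
    exact mem_of_pow_mem_of_coprime ho (by
      rw [pow_two, ← sq_mul' (cm hy.2 hk).symm (c.q.g.sq hk)]; exact mul_mem e e)

theorem W_le : R ⊔ K ≤ PP (R ⊔ K) K :=
  le_core (fun w hw => ⟨⟨⟨sup_le c.RK c.q.g.comm |>.trans (cent_le_norm K) hw, fun v hv => by
    rw [(cm (c.Wc hw) hv).commutator_eq]; exact one_mem _⟩, sup_le c.RK c.q.g.comm hw⟩,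
    le_centralizer_iff.1 (res_le _) hw⟩) (isPGroup_iff_forall.2 fun w hw => ⟨1, by rw [pow_one, pow_two, c.Wsq hw]⟩)
    (UU_norm le_sup_right)

theorem fx (hx : x ∈ PP (R ⊔ K) K) (h1 : x⁻¹ * h * x ∈ 𝒩(A)) : x ∈ 𝒩(A) := by
  obtain ⟨k, hk, e⟩ := cmod_cj (PP_le hx).1.1 (mem_sup_left c.g.ma)
  have l := mul_mem (inv_mem hk) (conj_mem c.q.hK hk)
  have h2 := mul_mem (inv_mem (c.le c.g.ma)) (conj_mem (norm_le_norm_cent A h1) (c.le c.g.ma))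
  rw [show x⁻¹ * h * x * r * (x⁻¹ * h * x)⁻¹ = x⁻¹ * (h * (x * r * x⁻¹) * h⁻¹) * x by group, e, ← conj_mul,
    conj_eq_of_mem c.hR c.g.ma, show r * (h * k * h⁻¹) = r * k * (k⁻¹ * (h * k * h⁻¹)) by group, ← e, mul_assoc x⁻¹,
    mul_assoc _ _ x, (cm (PP_le hx).1.2 l).eq,
    show r⁻¹ * (x⁻¹ * (x * r * x⁻¹ * (x * (k⁻¹ * (h * k * h⁻¹))))) = k⁻¹ * (h * k * h⁻¹) by group] at h2
  rw [c.q.fpf hk (mul_inv_eq_iff_eq_mul.1 (inv_mul_eq_one.1 (SF.eq_one_of_mem c.hA (c.q.le l) h2)).symm), mul_one] at e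
  exact c.nA c.g.ma c.g.v4.u1 (e.symm ▸ c.le c.g.ma)

section
variable (nr : ∀ k ∈ K, ¬ F.Rt k)
include nr

theorem nK : 𝒩((R ⊔ K : Subgroup G)) ≤ 𝒩(K) := fun n hn => mem_norm_of_cj_le (by
  rintro _ ⟨k, hk, rfl⟩
  obtain ⟨x, hx, l, hl, e⟩ := c.memW.1 (conj_mem hn (mem_sup_right hk))
  by_cases x1 : x = 1
  · rw [x1, one_mul] at e; exact (e ▸ hl : n * k * n⁻¹ ∈ K)
  · exact absurd (by simpa [e, mul_assoc] using (c.rt hx x1 hl).conj n⁻¹) (nr k hk))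

theorem toB (hn : n ∈ 𝒩((R ⊔ K : Subgroup G))) (h1 : n ∉ 𝒩(A)) : ∃ t ∈ zpowers h, cj (t * n) A = B := by
  obtain ⟨x, hx, k, hk, e⟩ := c.memW.1 (conj_mem hn (mem_sup_left c.g.ma))
  obtain ⟨t, ht, h2⟩ := c.lam hx (by
    rintro rfl
    rw [one_mul] at e
    exact nr k hk (e ▸ SF.Rt.conj ⟨c.g.v4.uu, c.g.v4.u1, A, c.hA, c.le c.g.ma⟩ n)) hk (by
    rintro rfl
    rw [mul_one] at e
    exact h1 (c.nA c.g.ma c.g.v4.u1 (e ▸ c.le hx)))
  exact ⟨t, ht, F.te (F.conj c.hA _) c.hB (by rw [conj_mul, c.g.v4.uu]; simp) (mt conj_eq_one_iff.1 c.g.v4.u1)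
    (cj_cent (t * n) A ▸ conj_mem_cj _ (c.le c.g.ma)) (by simpa only [e, mul_assoc, mul_inv_rev] using h2)⟩

end

variable (H : Hy.{u} Δ)
include H

theorem d1 (t : Tw x) (h1 : x ∈ 𝒞(A)) (h2 : x ∈ 𝒩(R)) : x ∈ R := by
  obtain ⟨z, z1, z2, z3⟩ := t.fix c.g h2
  obtain ⟨l, l1, l2⟩ := c.gr z1
  have xB := SF.norm_of_comm c.hB (c.sq z1 l1) (c.ne1 z1 z2 l1) l2 (z3.mul_right (cm h1 (c.q.le l1)).symm)
  have xR : x ∈ 𝒞(R) := fun y hy => by
    obtain ⟨k, hk, e⟩ := c.gr hy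
    have := mul_mem (conj_mem (norm_le_norm_cent B xB) e) (inv_mem e)
    rw [← conj_mul, conj_eq_of_mem h1 (c.q.le hk), mul_inv_rev, mul_assoc, mul_inv_cancel_left] at this
    have m := mul_mem (conj_mem h2 hy) (inv_mem hy)
    exact (mul_inv_eq_iff_eq_mul.1 (mul_inv_eq_one.1 (c.one (c.le m) this (c.g.sq m)))).symm
  obtain ⟨y, hy, e⟩ := H.lemC c.hB c.hA c.ne.symm c.g c.le c.RB xB xR
  obtain ⟨n, hn⟩ := t.mul (cm xR hy).symm (c.g.sq hy)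
  exact eq_inv_of_mul_eq_one_left (eq_one_of_coprime_of_pow (Nat.coprime_two_right.2
    (odd_ord c.hA c.hB c.ne (mul_mem h1 (c.le hy)) e)) hn) ▸ inv_mem hy

theorem sylR : IsSylowIn 2 R 𝒞(A) := isSylowIn_of_maximal c.le c.g.isP fun U hU h1 h2 => by_contra fun e => by
  obtain ⟨x, hx, h3⟩ := SetLike.exists_of_lt (lt_inf_normalizer_of_isPGroup hU (lt_of_le_of_ne h1 (Ne.symm e)))
  exact h3 (c.d1 H (Tw.of_mem hU hx.1) (h2 hx.1) hx.2)

theorem kerK (t : Tw y) (h1 : y ∈ 𝒩(R)) (h2 : y ∈ 𝒞(K)) : y ∈ R ⊔ K := by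
  obtain ⟨k, hk, e⟩ := c.q.cen y (c.NR_le h1) h2
  simpa using mul_mem_sup (c.d1 H (t.mul (cm h2 hk).symm (c.q.g.sq hk)) e (mul_mem h1 (cent_le_norm R (c.KR hk))))
    (inv_mem hk)

theorem PA (hx : x ∈ PP (R ⊔ K) K) (h1 : x ∈ 𝒩(A)) : x ∈ R ⊔ K :=
  c.kerK H (PP_tw hx) (c.normR (UU_norm le_sup_right (PP_le hx)) h1) (PP_le hx).1.2

variable (nr : ∀ k ∈ K, ¬ F.Rt k)
include nr

theorem swap : ∃ V h', Cg F B A V K a b h' (r * a) (s * b) ∧ V ⊔ K = R ⊔ K := by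
  have ma := mul_mem_sup c.g.ma c.q.g.ma
  have mb := mul_mem_sup c.g.mb c.q.g.mb
  have g := gen_of (⟨c.Wsq ma, c.Wsq mb, c.ne1 c.g.ma c.g.v4.u1 c.q.g.ma, c.ne1 c.g.mb c.g.v4.v1 c.q.g.mb,
    fun e => c.ne1 (mul_mem c.g.ma c.g.mb) c.g.v4.uv1 (mul_mem c.q.g.ma c.q.g.mb) (by
      rw [mul_assoc, ← mul_assoc s, ← (cm (c.RK c.g.mb) c.q.g.ma).eq, mul_assoc, ← mul_assoc, e, c.Wsq mb]),
    cm (c.Wc mb) ma⟩ : V4 (r * a) (s * b))
  have VB := g.le c.ra c.sb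
  have VW := g.le ma mb
  obtain ⟨t, ht⟩ := F.tr c.hA c.hB
  have sV : IsSylowIn 2 (closure {r * a, s * b}) 𝒞(B) := by
    have := syl_cj (c.sylR H) t
    rw [cj_cent, ht] at this
    exact this.of_card_le g.isP VB (by rw [card_cj, c.g.card, g.card])
  obtain ⟨K', a', b', h', q', ha, hb⟩ := H.lemP c.hB c.hA c.ne.symm c.g c.le c.RB
  have key : ∀ x ∈ R, ∀ k ∈ K, ∀ l ∈ K', l ≠ 1 → x * k ∈ 𝒞(B) → x * l ∈ 𝒞(B) → l = k := fun x hx k hk l hl l1 h1 h2 => by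
    have lB := q'.le hl
    have h3 := VW (syl_mem sV ⟨1, by rw [pow_one, pow_two, sq_mul (cm_of_mul lB h2) (c.g.sq hx) (q'.g.sq hl)]⟩ h2
      (cent_le_norm _ (mul_mem (cent_mono VW (c.Wc (mem_sup_left hx))) (le_centralizer_iff.1 VB lB))))
    obtain ⟨y, hy, m, hm, e⟩ := c.memW.1 ((mul_mem_cancel_left (mem_sup_left hx)).1 h3)
    by_cases y1 : y = 1
    · rw [y1, one_mul] at e
      exact (inv_mul_eq_one.1 (c.nB (mul_mem (inv_mem hk) (e ▸ hm)) (by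
        simpa [mul_assoc] using mul_mem (inv_mem h1) h2))).symm
    · obtain ⟨z, hz⟩ := H.inv_conj c.hB c.hA lB (c.q.le c.q.g.ma) (q'.g.sq hl) c.q.g.v4.uu l1 c.q.g.v4.u1
      exact absurd (hz ▸ (e ▸ c.rt hy y1 hm).conj z) (nr a c.q.g.ma)
  obtain rfl := key _ c.g.ma _ c.q.g.ma _ q'.g.ma q'.g.v4.u1 c.ra ha
  obtain rfl := key _ c.g.mb _ c.q.g.mb _ q'.g.mb q'.g.v4.v1 c.sb hb
  obtain rfl : K' = K := Subgroup.ext fun x => q'.g.mem.trans c.q.g.mem.symm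
  refine ⟨_, h', ⟨c.hB, c.hA, c.ne.symm, q', g, VB, by rw [mul_assoc, q'.g.v4.uu, mul_one]; exact c.le c.g.ma,
    by rw [mul_assoc, q'.g.v4.vv, mul_one]; exact c.le c.g.mb⟩, le_antisymm (sup_le VW le_sup_right)
    (sup_le (c.g.le ?_ ?_) le_sup_right)⟩
  · simpa using mul_mem_sup g.ma (inv_mem q'.g.ma)
  · simpa using mul_mem_sup g.mb (inv_mem q'.g.mb)

theorem sqP (hy : y ∈ PP (R ⊔ K) K) : y * y ∈ K := by
  have h1 := sqU (fun _ => c.q.g.sq) (PP_le hy)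
  rw [cent_sup] at h1
  obtain ⟨x, hx, k, hk, e⟩ := c.memW.1 (c.kerK H (PP_tw (mul_mem hy hy)) (cent_le_norm R h1.1) h1.2)
  by_cases x1 : x = 1
  · rw [x1, one_mul] at e; exact e ▸ hk
  have h2 : Commute y (x * k) := e ▸ (Commute.refl y).mul_right (.refl y)
  suffices y ∈ R ⊔ K from c.Wsq this ▸ one_mem K
  by_cases k1 : k = 1
  · exact c.PA H hy (c.nA' hx x1 (by simpa [k1] using h2))
  obtain ⟨t, ht, h3⟩ := c.lam hx x1 hk k1
  obtain ⟨V, h', c', eW⟩ := c.swap H nr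
  have := c'.PA H (eW ▸ conj_mem (norm_PP c.hW (zpowers_le.2 c.q.hK) ht) hy) (SF.norm_of_comm c.hB
    (by rw [conj_mul, c.sq hx hk]; simp) (mt conj_eq_one_iff.1 (c.ne1 hx x1 hk)) h3 (h2.conj t))
  exact (mem_normalizer_iff.1 (c.hW ht) y).2 (eW ▸ this)

theorem brP (hx : x ∈ PP (R ⊔ K) K) (hy : y ∈ PP (R ⊔ K) K) : ⁅x, y⁆ ∈ K := by
  have := mul_mem (mul_mem (c.sqP H nr (mul_mem hx hy)) (conj_mem' (PP_le hy).1.1.1 (c.sqP H nr (inv_mem hx))))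
    (c.sqP H nr (inv_mem hy))
  simpa only [commutatorElement_def, mul_assoc, mul_inv_cancel_left] using this

theorem exP : ∃ x ∈ PP (R ⊔ K) K, x ∉ 𝒩(A) := by
  by_contra! h1
  obtain ⟨V, h', c', eW⟩ := c.swap H nr
  have h2 := mem_inf.1 (eW ▸ c'.hU)
  have h0 := mem_inf.1 c.hU
  have h3 : ∀ k, h * k * h⁻¹ = h' * k * h'⁻¹ → Commute (h⁻¹ * h') k := fun k e => by
    rw [Commute, SemiconjBy, mul_assoc, mul_inv_eq_iff_eq_mul.1 e.symm]; group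
  have h4 := (mul_mem_cancel_left (inv_mem (le_normalizer c.q.mh))).1 (UU_le (fun _ => c.q.g.sq) h1
    ((cent_mono le_sup_left).trans ((cent_le_norm R).trans c.NR_le)) (show h⁻¹ * h' ∈ UU (R ⊔ K) K from
      ⟨⟨Subgroup.mul_mem _ (inv_mem h0.1) h2.1, c.q.g.cent (h3 a (c.q.ha.trans c'.q.ha.symm)) (h3 b (c.q.hb.trans c'.q.hb.symm))⟩,
        Subgroup.mul_mem _ (inv_mem h0.2) h2.2⟩))
  have h5 := mul_mem (inv_mem c'.ra) (conj_mem (norm_le_norm_cent A h4) c'.ra)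
  rw [← conj_mul, conj_eq_of_mem c'.hR c'.g.ma, c'.q.ha, mul_inv_rev, mul_assoc, inv_mul_cancel_left] at h5
  exact c.q.g.v4.ne (inv_mul_eq_one.1 (c'.nB (mul_mem (inv_mem c.q.g.ma) c.q.g.mb) h5))

/-- the abelian group of order 16 -/
theorem exF {X : Subgroup G} [X.Normal] (hX : A ≤ X) : ∃ (E : Subgroup G) (r0 : G), Nat.card E = 16 ∧ K ≤ E ∧ E ≤ X ∧
    E ≤ PP (R ⊔ K) K ∧ E ≤ 𝒞(E) ∧ (∀ y ∈ E, y ∈ 𝒩(A) → y ∈ K) ∧ h ∈ 𝒩(E) ∧ r0 ∈ R ∧
    (∀ y ∈ E, r0 * y * r0 = y⁻¹) ∧ ∃ f ∈ E, f ∉ 𝒩(A) := by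
  obtain ⟨x, hx, x1⟩ := c.exP H nr
  have hP := norm_PP c.hW (zpowers_le.2 c.q.hK) (mem_zpowers h)
  have hA := le_normalizer c.q.mh
  have KA : K ≤ 𝒩(A) := c.q.le.trans le_normalizer
  obtain ⟨f, hf⟩ : ∃ f, f = x⁻¹ * (h * x * h⁻¹) := ⟨_, rfl⟩
  obtain ⟨g, hg⟩ : ∃ g, g = h * f * h⁻¹ := ⟨_, rfl⟩
  have fP : f ∈ PP (R ⊔ K) K := hf ▸ mul_mem (inv_mem hx) (conj_mem hP hx)
  have gP : g ∈ PP (R ⊔ K) K := hg ▸ conj_mem hP fP
  have fX : f ∈ X := by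
    rw [hf, mul_assoc, ← mul_assoc, ← mul_assoc, mul_assoc _ x, ← mul_assoc]
    exact mul_mem (‹X.Normal›.conj_mem' _ (hX c.q.mh) x) (inv_mem (hX c.q.mh))
  have e1 : h * g * h⁻¹ = (f * g)⁻¹ := by
    have e : h⁻¹ = h * h := inv_eq_of_mul_eq_one_right (by rw [← c.q.h3, pow_three])
    calc _ = h * h * x⁻¹ * h * x * (h ^ 3)⁻¹ := by rw [hg, hf]; group
      _ = h * h * x⁻¹ * (h⁻¹ * h⁻¹) * x := by
        rw [c.q.h3, e, show h * h * (h * h) = h ^ 3 * h by simp [pow_succ, mul_assoc], c.q.h3]; simp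
      _ = _ := by rw [hg, hf]; simp [mul_assoc]
  have f1 : f ∉ 𝒩(A) := fun k => x1 (c.fx hx (by simpa [hf, mul_assoc] using mul_mem k hA))
  have g1 : g ∉ 𝒩(A) := fun k => f1 ((mem_normalizer_iff.1 (le_normalizer hA) f).2 (hg ▸ k))
  have fg1 : f * g ∉ 𝒩(A) := fun k => g1 ((mem_normalizer_iff.1 (le_normalizer hA) g).2 (e1 ▸ inv_mem k))
  have fg : Commute f g := by
    have k := c.brP H nr fP gP
    refine commutatorElement_eq_one_iff_commute.1 (c.q.fpf k (mul_inv_eq_iff_eq_mul.1 ?_))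
    rw [conjugate_commutatorElement, ← hg, e1, ← conj_eq_of_mem (PP_le (inv_mem (mul_mem gP fP))).1.2 k]
    simp only [commutatorElement_def]; group
  have fK := (PP_le fP).1.2
  have gK := (PP_le gP).1.2
  have m1 := CL.Inv.mem_sup_zpowers_iff (cent_le_norm K fK) (c.sqP H nr fP)
  have cg : K ⊔ zpowers f ≤ centralizer {g} :=
    sup_le (fun k hk => mem_cent_singleton.2 (cm gK hk)) (zpowers_le.2 (mem_cent_singleton.2 fg))
  have m2 := CL.Inv.mem_sup_zpowers_iff (A := K ⊔ zpowers f) (w := g)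
    (cent_le_norm _ fun y hy => mem_cent_singleton.1 (cg hy)) (mem_sup_left (c.sqP H nr gP))
  have EP : K ⊔ zpowers f ⊔ zpowers g ≤ PP (R ⊔ K) K :=
    sup_le (sup_le (le_sup_right.trans c.W_le) (zpowers_le.2 fP)) (zpowers_le.2 gP)
  have fE : f ∈ K ⊔ zpowers f ⊔ zpowers g := mem_sup_left (mem_sup_right (mem_zpowers f))
  have gE : g ∈ K ⊔ zpowers f ⊔ zpowers g := mem_sup_right (mem_zpowers g)
  have KE : K ≤ K ⊔ zpowers f ⊔ zpowers g := le_sup_left.trans le_sup_left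
  have ind : ∀ {M : Subgroup G}, K ≤ M → f ∈ M → g ∈ M → K ⊔ zpowers f ⊔ zpowers g ≤ M := fun h1 h2 h3 =>
    sup_le (sup_le h1 (zpowers_le.2 h2)) (zpowers_le.2 h3)
  have Ec : K ⊔ zpowers f ⊔ zpowers g ≤ 𝒞((K ⊔ zpowers f ⊔ zpowers g : Subgroup G)) :=
    ind (le_centralizer_iff.1 fun y hy => (PP_le (EP hy)).1.2)
      (fun y hy => mem_cent_singleton.1 (ind (M := centralizer {f}) (fun k hk => mem_cent_singleton.2 (cm fK hk))
        (mem_cent_singleton.2 rfl) (mem_cent_singleton.2 fg.symm) hy))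
      fun y hy => mem_cent_singleton.1 (sup_le cg (zpowers_le.2 (mem_cent_singleton.2 rfl)) hy)
  obtain ⟨⟨r0, r1⟩, r2⟩ := (Function.Injective.bijective_of_nat_card_le
    (f := fun y : R => (⟨⁅(y : G), f⁆, c.brP H nr (c.W_le (mem_sup_left y.2)) fP⟩ : K)) (fun y z e => by
      have e' : ⁅(y : G), f⁆ = ⁅(z : G), f⁆ := congrArg Subtype.val e
      refine Subtype.ext (inv_mul_eq_one.1 (by_contra fun k => f1 (c.nA' (mul_mem (inv_mem z.2) y.2) k ?_))).symm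
      rw [commutatorElement_def, commutatorElement_def, mul_left_inj] at e'
      rw [Commute, SemiconjBy, mul_assoc, mul_inv_eq_iff_eq_mul.1 e']; group)
    (by rw [c.g.card, c.q.g.card])).2 ⟨_, inv_mem (c.sqP H nr fP)⟩
  have r3 : r0 * f * r0⁻¹ = f⁻¹ := by
    have : r0 * f * r0⁻¹ * f⁻¹ = (f * f)⁻¹ := congrArg Subtype.val r2
    rwa [mul_inv_rev, mul_left_inj] at this
  let I : Subgroup G :=
    { carrier := {y | y ∈ K ⊔ zpowers f ⊔ zpowers g ∧ r0 * y * r0⁻¹ = y⁻¹}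
      one_mem' := ⟨one_mem _, by simp⟩
      mul_mem' := fun h1 h2 => ⟨mul_mem h1.1 h2.1, by
        rw [← conj_mul, h1.2, h2.2, ← mul_inv_rev, (cm (Ec h1.1) h2.1).eq]⟩
      inv_mem' := fun h1 => ⟨inv_mem h1.1, by rw [← conj_inv, h1.2]⟩ }
  refine ⟨_, r0, ?_, KE, ind (c.q.le.trans hX) fX (hg ▸ conj_mem (le_normalizer (hX c.q.mh)) fX), EP, Ec,
    fun y hy k => ?_, mem_norm_of_cj_le (cj_le_iff.2 (ind (fun k hk => ?_) ?_ ?_)), r1, fun y hy => ?_, f, fE, f1⟩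
  · rw [CL.Inv.card_eq_two_mul_of_mem_iff (fun k => ((m1 g).1 k).elim (fun k => g1 (KA k)) fun k => fg1 (KA (by
        have := mul_mem k (c.sqP H nr fP)
        rwa [← mul_assoc, inv_mul_cancel_right, ← fg.eq] at this))) m2,
      CL.Inv.card_eq_two_mul_of_mem_iff (fun k => f1 (KA k)) m1, c.q.g.card]
  · rcases (m2 y).1 hy with e | e <;> rcases (m1 _).1 e with e | e
    · exact e
    · exact absurd (inv_mem_iff.1 ((mul_mem_cancel_left k).1 (KA e))) f1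
    · exact absurd (inv_mem_iff.1 ((mul_mem_cancel_left k).1 (KA e))) g1
    · rw [mul_assoc, ← mul_inv_rev] at e
      exact absurd (inv_mem_iff.1 ((mul_mem_cancel_left k).1 (KA e))) fg1
  · rw [mem_cj, inv_inv]; exact KE (conj_mem c.q.hK hk)
  · rw [mem_cj, inv_inv, ← hg]; exact gE
  · rw [mem_cj, inv_inv, e1]; exact inv_mem (mul_mem fE gE)
  · rw [← (ind (M := I) (fun k hk => ⟨KE hk, by
        rw [conj_eq_of_mem (c.RK r1) hk, inv_eq_of_mul_eq_one_right (c.q.g.sq hk)]⟩) ⟨fE, r3⟩ ⟨gE, by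
        have e := (cm c.hR r1).eq
        rw [hg, conj_inv, ← r3, ← mul_assoc, ← mul_assoc, e, mul_assoc _ h⁻¹, ← mul_inv_rev, e]; group⟩ hy).2,
      inv_eq_of_mul_eq_one_right (c.g.sq r1)]

theorem l4 {X : Subgroup G} (Xn : X.Normal) (Xs : IsSimpleGroup X) (Xc : ¬ IsMulCommutative X) (hX : A ≤ X) :
    ∃ D : L4 G, D.X = X := by
  obtain ⟨E, r0, e1, e2, e3, e4, e5, e6, e7, e8, e9, f, fE, f1⟩ := c.exF H nr hX
  have nK := c.nK nr
  have PW := PP_le.trans (UU_norm (W := R ⊔ K) le_sup_right)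
  have dec : ∀ n ∈ 𝒩((R ⊔ K : Subgroup G)), ∃ y ∈ E, y * n ∈ 𝒩(A) := fun n hn => by
    by_cases e : n ∈ 𝒩(A)
    · exact ⟨1, one_mem _, by rwa [one_mul]⟩
    obtain ⟨t, ht, k⟩ := c.toB nr hn e
    obtain ⟨t', ht', k'⟩ := c.toB nr (PW (e4 fE)) f1
    have m := mul_mem (inv_mem ht') ht
    refine ⟨_, conj_mem' (zpowers_le.2 e7 m) (inv_mem fE), ?_⟩
    rw [mul_assoc, mul_assoc, mul_mem_cancel_left (inv_mem (le_normalizer (zpowers_le.2 c.q.mh m))), ← cj_eq_iff_mem,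
      show f⁻¹ * (t'⁻¹ * t * n) = (t' * f)⁻¹ * (t * n) by group, cj_mul, k, ← k', cj_inv_cj]
  have PE : R ⊔ E = PP (R ⊔ K) K := le_antisymm (sup_le (le_sup_left.trans c.W_le) e4) fun x hx => by
    obtain ⟨y, hy, k⟩ := dec x (PW hx)
    exact (mul_mem_cancel_left (mem_sup_right hy)).1 (sup_le_sup_left e2 R (c.PA H (mul_mem (e4 hy) hx) k))
  have sR := c.sylR H
  have sK := H.syl c.hA c.q
  have QA := cent_le_norm A
  obtain ⟨T, hT, WT⟩ := exists_isSylowIn_ge (isPGroup_sup c.g.isP c.q.g.isP (c.RK.trans (cent_le_norm K)))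
    (sup_le (c.le.trans QA) (c.q.le.trans le_normalizer))
  have TR : T ⊓ 𝒞(A) = R := sR.eq_of_le hT.isPGroup.to_inf_left (le_inf (le_sup_left.trans WT) c.le) inf_le_right
  have TK : T ⊓ A = K := sK.eq_of_le hT.isPGroup.to_inf_left (le_inf (le_sup_right.trans WT) c.q.le) inf_le_right
  have TR' : T ≤ 𝒩(R) := TR ▸ le_norm_inf le_normalizer (le_norm_cent hT.le)
  obtain ⟨S, hS, TS⟩ := exists_isSylowIn_ge hT.isPGroup (le_norm_sup TR' (TK ▸ le_norm_inf le_normalizer hT.le))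
  have nd : ∀ x ∈ R, ∀ y ∈ E, Commute x y → x = 1 ∨ y ∈ K := fun x hx y hy k =>
    or_iff_not_imp_left.2 fun x1 => e6 y hy (c.nA' hx x1 k.symm)
  refine ⟨{
    X := X, R := R, K := K, S := S, ρ := F.Rt, Xn := Xn, Xs := Xs, Xc := Xc, cR := c.g.card, cK := c.q.g.card
    sqR := fun _ => c.g.sq
    sqK := fun _ => c.q.g.sq
    RK := fun _ hx _ hk => (cm (c.RK hx) hk).symm
    disj := fun _ hx hk => SF.eq_one_of_mem c.hA (c.q.le hk) (c.le hx)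
    rc := fun _ g k => k.conj g
    rt := fun x ⟨x2, _, C, hC, k⟩ => ?_
    syl := hS
    ker := fun y hy k1 k2 => c.kerK H (Tw.of_mem hS.isPGroup hy) k1
      (k2.elim (c.kerR (Tw.of_mem hS.isPGroup hy) (nK (hS.le hy))) id)
    ext := fun x hx x1 P hP k => ?_
    F := E, h := h, r0 := r0, cF := e1, KF := e2, FX := e3
    Fc := fun _ hx _ hy => cm (e5 hy) hx
    br := fun _ hx _ hy => c.brP H nr (c.W_le (mem_sup_left hx)) (e4 hy)
    nd := nd, r0R := e8, inv := e9, hX := hX c.q.mh, h3 := c.q.h3, hF := e7, hK := c.q.hK, hR := c.hR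
    fpf := fun y hy k => c.q.fpf (e6 y hy (c.fx (e4 hy) (by
      rw [mul_assoc, k.eq, inv_mul_cancel_left]; exact le_normalizer c.q.mh))) k
    rW := fun _ hx x1 _ hk => c.rt hx x1 hk
    rK := nr
    PS := PE ▸ hS.le_of_normalized (core_isP _) PW (norm_PP le_rfl nK)
    nP := PE ▸ norm_PP le_rfl nK
    nK := nK
    dec := fun y hy => (dec y (hS.le hy)).imp fun z hz =>
      ⟨hz.1, c.normR (mul_mem (PW (e4 hz.1)) (hS.le hy)) hz.2⟩
    fus := fun x hx y hy k => ?_ }, rfl⟩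
  · obtain ⟨g, rfl⟩ := F.tr hC c.hA
    obtain ⟨t, -, k'⟩ := syl_conj_le sR (isPGroup_zpowers (x := g * x * g⁻¹) (k := 1) (by
      rw [pow_one, pow_two, conj_mul, x2]; simp)) (zpowers_le.2 (cj_cent g C ▸ conj_mem_cj g k))
    exact ⟨t * g, by simpa only [mul_assoc, mul_inv_rev] using k' (conj_mem_cj t (mem_zpowers _))⟩
  · obtain ⟨g, hg, k'⟩ := syl_conj_le hT (isPGroup_sup hP (isPGroup_zpowers (x := x) (k := 1) (by
      rw [pow_one, pow_two, c.g.sq hx])) ((le_centralizer_iff.1 (zpowers_le.2 fun y hy =>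
        mem_cent_singleton.1 (k hy))).trans (cent_le_norm _)))
      (sup_le (fun y hy => c.nA' hx x1 (mem_cent_singleton.1 (k hy))) (zpowers_le.2 (QA (c.le hx))))
    exact ⟨g, TR.le ⟨k' (conj_mem_cj g (mem_sup_right (mem_zpowers x))), conj_mem (norm_le_norm_cent A hg) (c.le hx)⟩,
      ((cj_mono g le_sup_left).trans k').trans (le_inf TS TR')⟩
  · by_cases x1 : x = 1
    · exact ⟨1, one_mem _, one_mem _, by rw [x1, isConj_one_right] at k; simp [x1, k]⟩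
    obtain ⟨g, rfl⟩ := isConj_iff.1 k
    have gA := c.nA hx x1 (c.le hy)
    obtain ⟨t, ht, k1⟩ := syl_conj ((syl_cj_of_mem_norm sR (norm_le_norm_cent A gA)).of_le
      (K := 𝒞(A) ⊓ centralizer {g * x * g⁻¹}) (le_inf (cj_le_of_le c.le (norm_le_norm_cent A gA)) (by
        rintro _ ⟨z, hz, rfl⟩
        exact mem_cent_singleton.2 ((cm (c.g.comm hx) hz).conj g))) inf_le_left)
      (sR.of_le (le_inf c.le fun z hz => mem_cent_singleton.2 (cm (c.g.comm hy) hz)) inf_le_left)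
    obtain ⟨d, hd, k2⟩ := syl_conj (syl_cj_of_mem_norm sK (mul_mem (QA ht.1) gA)) sK
    have dR := le_centralizer_iff.1 c.le hd
    have k3 : d * (t * g) ∈ 𝒩(R) := mul_mem (cent_le_norm R dR) (cj_eq_iff_mem.1 ((cj_mul t g R).trans k1))
    refine ⟨_, le_norm_sup (zpowers_le.2 k3) (zpowers_le.2 (cj_eq_iff_mem.1 ((cj_mul d _ K).trans k2)))
      (mem_zpowers _), k3, ?_⟩
    rw [show d * (t * g) * x * (d * (t * g))⁻¹ = d * (t * (g * x * g⁻¹) * t⁻¹) * d⁻¹ by group,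
      mem_cent_singleton.1 ht.2, mul_inv_cancel_right, conj_eq_of_mem dR hy]

end Cg

end N5

theorem five_of (six : Six.{u}) (p5 : P5) (pc : PC) (ps : PS) (pe7 : PE7) : Five.{u} := by
  intro G _ _ Δ _ _ F X h5 h Xn Xs Xc hX
  have H : N5.Hy.{u} Δ := ⟨six, p5, pc, ps, pe7, h5⟩
  exact (H.cases h).imp_right fun ⟨A, _, _, _, _, _, _, _, _, c, nr⟩ => c.l4 H nr Xn Xs Xc (hX A c.hA)

end CL.ST4
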